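import Cfsg.Agent.Zel.Sand.Unavoid

/-!
# The Kostrikin–Zelmanov sandwich theorem

`sandN m` is a bound depending on `m` only such that a product of at least `sandN m` factors taken
from `m` sandwiches vanishes.
-/

set_option autoImplicit false

namespace Cfsg.Agent.Zel.Sand

section Lead

variable {α : Type*} [LinearOrder α] {R : Type*} [Ring R] (x : α → R)

/-- the span of the values of the smaller words of the same length -/
def Low (u : List α) : AddSubgroup R :=
  AddSubgroup.closure {r | ∃ w : List α, w.length = u.length ∧ SLt w u ∧ r = (w.map x).prod}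

variable {x}

theorem val_mem_low {u w : List α} (hl : w.length = u.length) (h : SLt w u) :
    (w.map x).prod ∈ Low x u := AddSubgroup.subset_closure ⟨w, hl, h, rfl⟩

theorem low_mono {u w : List α} (hl : w.length = u.length) (h : SLt w u) : Low x w ≤ Low x u := by
  refine (AddSubgroup.closure_le _).2 ?_
  rintro _ ⟨v, h1, h2, rfl⟩
  exact val_mem_low (h1.trans hl) (h2.trans h)

theorem low_mul_val {u : List α} {r : R} (hr : r ∈ Low x u) (v v' : List α)
    (hl : v'.length = v.length) : r * (v'.map x).prod ∈ Low x (u ++ v) := by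
  induction hr using AddSubgroup.closure_induction with
  | mem r hr =>
    obtain ⟨w, h1, h2, rfl⟩ := hr
    rw [← List.prod_append, ← List.map_append]
    exact val_mem_low (by simp [h1, hl]) (h2.append _ _)
  | zero => rw [zero_mul]; exact zero_mem _
  | add a b _ _ ha hb => rw [add_mul]; exact add_mem ha hb
  | neg a _ ha => rw [neg_mul]; exact neg_mem ha

theorem val_mul_low (u : List α) {v : List α} {r : R} (hr : r ∈ Low x v) :
    (u.map x).prod * r ∈ Low x (u ++ v) := by
  induction hr using AddSubgroup.closure_induction with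
  | mem r hr =>
    obtain ⟨w, h1, h2, rfl⟩ := hr
    rw [← List.prod_append, ← List.map_append]
    exact val_mem_low (by simp [h1]) (h2.append_left _)
  | zero => rw [mul_zero]; exact zero_mem _
  | add a b _ _ ha hb => rw [mul_add]; exact add_mem ha hb
  | neg a _ ha => rw [mul_neg]; exact neg_mem ha

theorem low_mul_low {u v : List α} {r s : R} (hr : r ∈ Low x u) (hs : s ∈ Low x v) :
    r * s ∈ Low x (u ++ v) := by
  induction hs using AddSubgroup.closure_induction with
  | mem s hs =>
    obtain ⟨w, h1, -, rfl⟩ := hs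
    exact low_mul_val hr v w h1
  | zero => rw [mul_zero]; exact zero_mem _
  | add a b _ _ ha hb => rw [mul_add]; exact add_mem ha hb
  | neg a _ ha => rw [mul_neg]; exact neg_mem ha

/-- `c` has leading word `u` -/
def Lead (x : α → R) (c : R) (u : List α) : Prop := c - (u.map x).prod ∈ Low x u

theorem Lead.val (u : List α) : Lead x (u.map x).prod u := by
  unfold Lead; rw [sub_self]; exact zero_mem _

theorem Lead.mul {c d : R} {u v : List α} (hc : Lead x c u) (hd : Lead x d v) :
    Lead x (c * d) (u ++ v) := by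
  unfold Lead at *
  have : c * d - ((u ++ v).map x).prod =
      (c - (u.map x).prod) * (d - (v.map x).prod) + (c - (u.map x).prod) * (v.map x).prod
        + (u.map x).prod * (d - (v.map x).prod) := by
    rw [List.map_append, List.prod_append]; noncomm_ring
  rw [this]
  exact add_mem (add_mem (low_mul_low hc hd) (low_mul_val hc v v rfl)) (val_mul_low u hd)

theorem Lead.sub {c d : R} {u v : List α} (hc : Lead x c u) (hd : Lead x d v)
    (hl : v.length = u.length) (h : SLt v u) : Lead x (c - d) u := by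
  unfold Lead at *
  have : c - d - (u.map x).prod =
      (c - (u.map x).prod) - (d - (v.map x).prod) - (v.map x).prod := by abel
  rw [this]
  exact sub_mem (sub_mem hc (low_mono hl h hd)) (val_mem_low hl h)

/-- a regular word is the leading word of an iterated commutator -/
theorem exists_lead {S : Set R} (hS : ∀ a ∈ S, ∀ b ∈ S, a * b - b * a ∈ S) (hx : ∀ i, x i ∈ S)
    {u : List α} (hu : Reg u) : ∃ c ∈ S, Lead x c u := by
  induction hn : u.length using Nat.strong_induction_on generalizing u with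
  | _ n ih =>
    by_cases h2 : 2 ≤ u.length
    · obtain ⟨v, w, hv, hw, huv, hlt⟩ := hu.exists_fact h2
      have h3 := List.length_pos_iff.2 hv.1
      have h4 := List.length_pos_iff.2 hw.1
      have h5 : v.length + w.length = n := by rw [← hn, huv, List.length_append]
      obtain ⟨c, hc, hcv⟩ := ih v.length (by omega) hv rfl
      obtain ⟨d, hd, hdw⟩ := ih w.length (by omega) hw rfl
      refine ⟨c * d - d * c, hS c hc d hd, ?_⟩
      rw [huv]
      exact (hcv.mul hdw).sub (hdw.mul hcv) (by simp [add_comm]) hlt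
    · have h3 := List.length_pos_iff.2 hu.1
      obtain ⟨a, rfl⟩ := List.length_eq_one_iff.1 (show u.length = 1 by omega)
      refine ⟨x a, hx a, ?_⟩
      have := Lead.val (x := x) [a]
      simpa using this

theorem val_mem_low_of_bad {S : Set R} (hS : ∀ a ∈ S, ∀ b ∈ S, a * b - b * a ∈ S)
    (h2 : ∀ c ∈ S, c * c = 0) (h3 : ∀ c ∈ S, ∀ d ∈ S, c * d * c = 0) (hx : ∀ i, x i ∈ S)
    {w : List α} (hw : Bad w) : (w.map x).prod ∈ Low x w := by
  obtain ⟨p, u, g, s, hu, hg, rfl⟩ := hw
  obtain ⟨c, hc, hcu⟩ := exists_lead hS hx hu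
  have h0 : Lead x 0 (u ++ g ++ u) := by
    rcases hg with rfl | hg
    · rw [List.append_nil, ← h2 c hc]; exact hcu.mul hcu
    · obtain ⟨d, hd, hdg⟩ := exists_lead hS hx hg
      rw [← h3 c hc d hd]; exact (hcu.mul hdg).mul hcu
  have h1 := ((Lead.val (x := x) p).mul h0).mul (Lead.val s)
  unfold Lead at h1
  rw [mul_zero, zero_mul, zero_sub] at h1
  exact neg_mem_iff.1 h1

theorem val_eq_zero_of_bad [Finite α] {S : Set R} (hS : ∀ a ∈ S, ∀ b ∈ S, a * b - b * a ∈ S)
    (h2 : ∀ c ∈ S, c * c = 0) (h3 : ∀ c ∈ S, ∀ d ∈ S, c * d * c = 0) (hx : ∀ i, x i ∈ S)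
    {n : ℕ} (hn : ∀ w : List α, w.length = n → Bad w) (w : List α) (hw : w.length = n) :
    (w.map x).prod = 0 := by
  have hwf : {l : List α | l.length = n}.WellFoundedOn SLt :=
    (List.finite_length_eq α n).wellFoundedOn
  refine hwf.induction (P := fun w => (w.map x).prod = 0) hw (fun w hw ih => ?_)
  have h := val_mem_low_of_bad hS h2 h3 hx (hn w hw)
  have hle : Low x w ≤ ⊥ := by
    refine (AddSubgroup.closure_le _).2 ?_
    rintro _ ⟨v, h4, h5, rfl⟩
    exact ih v (h4.trans hw) h5
  exact hle h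

end Lead

/-- the bound of the sandwich theorem for `m` generators -/
noncomputable def sandN (m : ℕ) : ℕ := (exists_bad_bound (Fin m)).choose

/-- **Sandwich theorem**, associative form.  `S` is closed under commutators, `c * c = 0` and
`c * d * c = 0` for `c, d ∈ S`: a product of `sandN m` factors among `m` members of `S` is zero. -/
theorem prod_eq_zero_fin {R : Type*} [Ring R] {S : Set R}
    (hS : ∀ a ∈ S, ∀ b ∈ S, a * b - b * a ∈ S)
    (h2 : ∀ c ∈ S, c * c = 0) (h3 : ∀ c ∈ S, ∀ d ∈ S, c * d * c = 0) {m : ℕ} (x : Fin m → R)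
    (hx : ∀ i, x i ∈ S) (w : List (Fin m)) (hw : sandN m ≤ w.length) : (w.map x).prod = 0 :=
  val_eq_zero_of_bad hS h2 h3 hx
    (fun v hv => (exists_bad_bound (Fin m)).choose_spec v (hv ▸ hw)) w rfl

/-- the same for a finite set of members of `S` -/
theorem prod_eq_zero_finset {R : Type*} [Ring R] {S : Set R}
    (hS : ∀ a ∈ S, ∀ b ∈ S, a * b - b * a ∈ S)
    (h2 : ∀ c ∈ S, c * c = 0) (h3 : ∀ c ∈ S, ∀ d ∈ S, c * d * c = 0) (T : Finset R)
    (hT : ∀ t ∈ T, t ∈ S) (l : List R) (hl : ∀ a ∈ l, a ∈ T) (hlen : sandN T.card ≤ l.length) :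
    l.prod = 0 := by
  classical
  let e := T.equivFin
  let x : Fin T.card → R := fun i => (e.symm i : R)
  let w : List (Fin T.card) := l.pmap (fun a h => e ⟨a, h⟩) hl
  have hw : w.map x = l := by
    simp [w, x, List.map_pmap]
  rw [← hw]
  exact prod_eq_zero_fin hS h2 h3 x (fun i => hT _ (e.symm i).2) w (by simpa [w] using hlen)

/-- `c` is a sandwich relative to the set `T` -/
def IsSand {R : Type*} [Ring R] (T : Set R) (c : R) : Prop :=
  c ∈ T ∧ c * c = 0 ∧ ∀ y ∈ T, c * y * c = 0

/-- the commutator of two sandwiches is a sandwich -/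
theorem IsSand.lie {R : Type*} [Ring R] {T : Set R} (hT : ∀ a ∈ T, ∀ b ∈ T, a * b - b * a ∈ T)
    {a b : R} (ha : IsSand T a) (hb : IsSand T b) : IsSand T (a * b - b * a) := by
  obtain ⟨ha1, ha2, ha3⟩ := ha
  obtain ⟨hb1, hb2, hb3⟩ := hb
  have h1 := ha3 b hb1
  have h2 := hb3 a ha1
  refine ⟨hT a ha1 b hb1, ?_, fun y hy => ?_⟩
  · have : (a * b - b * a) * (a * b - b * a) =
        (a * b * a) * b - a * (b * b) * a - b * (a * a) * b + (b * a * b) * a := by noncomm_ring
    rw [this, h1, h2, ha2, hb2]; simp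
  · have h3 := ha3 _ (hT b hb1 y hy)
    have h4 := hb3 _ (hT a ha1 y hy)
    have : (a * b - b * a) * y * (a * b - b * a) =
        (a * (b * y - y * b) * a) * b + a * y * (b * a * b) - a * (b * y * b) * a
          - b * (a * y * a) * b + (b * (a * y - y * a) * b) * a + b * y * (a * b * a) := by
      noncomm_ring
    rw [this, h1, h2, h3, h4, ha3 y hy, hb3 y hy]; simp

/-- **Sandwich theorem**: `T` is closed under commutators, `x i` are `m` sandwiches relative to `T`.
Every product of at least `sandN m` of the `x i` is zero. -/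
theorem sand_prod_eq_zero {R : Type*} [Ring R] {T : Set R}
    (hT : ∀ a ∈ T, ∀ b ∈ T, a * b - b * a ∈ T) {m : ℕ} (x : Fin m → R)
    (hx : ∀ i, IsSand T (x i)) (w : List (Fin m)) (hw : sandN m ≤ w.length) :
    (w.map x).prod = 0 :=
  prod_eq_zero_fin (S := {c | IsSand T c}) (fun _ ha _ hb => IsSand.lie hT ha hb)
    (fun _ hc => hc.2.1) (fun _ hc d hd => hc.2.2 d hd.1) x hx w hw

/-- the same for a list with entries in a finite set of sandwiches -/
theorem sand_prod_eq_zero_finset {R : Type*} [Ring R] {T : Set R}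
    (hT : ∀ a ∈ T, ∀ b ∈ T, a * b - b * a ∈ T) (F : Finset R) (hF : ∀ c ∈ F, IsSand T c)
    (l : List R) (hl : ∀ a ∈ l, a ∈ F) (hlen : sandN F.card ≤ l.length) : l.prod = 0 :=
  prod_eq_zero_finset (S := {c | IsSand T c}) (fun _ ha _ hb => IsSand.lie hT ha hb)
    (fun _ hc => hc.2.1) (fun _ hc d hd => hc.2.2 d hd.1) F hF l hl hlen

/-- a sandwich of a Lie algebra -/
def IsLieSand {L : Type*} [LieRing L] (a : L) : Prop :=
  (∀ z : L, ⁅a, ⁅a, z⁆⁆ = 0) ∧ ∀ y z : L, ⁅a, ⁅y, ⁅a, z⁆⁆⁆ = 0

theorem isLieSand_iff {K L : Type*} [CommRing K] [LieRing L] [LieAlgebra K L] (a : L) :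
    IsLieSand a ↔ IsSand (Set.range (LieAlgebra.ad K L)) (LieAlgebra.ad K L a) := by
  constructor
  · rintro ⟨h1, h2⟩
    refine ⟨⟨a, rfl⟩, ?_, ?_⟩
    · ext z; simpa using h1 z
    · rintro _ ⟨y, rfl⟩
      ext z; simpa using h2 y z
  · rintro ⟨-, h1, h2⟩
    refine ⟨fun z => ?_, fun y z => ?_⟩
    · simpa using LinearMap.congr_fun h1 z
    · simpa using LinearMap.congr_fun (h2 _ ⟨y, rfl⟩) z

theorem ad_lie' {K L : Type*} [CommRing K] [LieRing L] [LieAlgebra K L] (a b : L) :
    LieAlgebra.ad K L ⁅a, b⁆ = LieAlgebra.ad K L a * LieAlgebra.ad K L b -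
      LieAlgebra.ad K L b * LieAlgebra.ad K L a := by
  ext z; simp

theorem range_ad_closed {K L : Type*} [CommRing K] [LieRing L] [LieAlgebra K L] :
    ∀ a ∈ Set.range (LieAlgebra.ad K L), ∀ b ∈ Set.range (LieAlgebra.ad K L),
      a * b - b * a ∈ Set.range (LieAlgebra.ad K L) := by
  rintro _ ⟨a, rfl⟩ _ ⟨b, rfl⟩
  exact ⟨⁅a, b⁆, ad_lie' a b⟩

theorem IsLieSand.lie {L : Type*} [LieRing L] {a b : L} (ha : IsLieSand a) (hb : IsLieSand b) :
    IsLieSand ⁅a, b⁆ := by
  rw [isLieSand_iff (K := ℤ)] at *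
  rw [ad_lie']
  exact IsSand.lie range_ad_closed ha hb

/-- **Sandwich theorem** for Lie algebras: a product of at least `sandN m` operators `ad (x i)`,
the `x i` being `m` sandwiches, is zero on the whole algebra. -/
theorem lie_sand_prod_eq_zero {K L : Type*} [CommRing K] [LieRing L] [LieAlgebra K L] {m : ℕ}
    (x : Fin m → L) (hx : ∀ i, IsLieSand (x i)) (w : List (Fin m)) (hw : sandN m ≤ w.length) :
    (w.map (fun i => LieAlgebra.ad K L (x i))).prod = 0 :=
  sand_prod_eq_zero range_ad_closed _ (fun i => (isLieSand_iff (x i)).1 (hx i)) w hw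

end Cfsg.Agent.Zel.Sand
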