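import Cfsg.Agent.Zel.Sand.Words

/-!
# Every long word has a factor `u g u` with `u` regular and `g` regular or empty
-/

set_option autoImplicit false

namespace Cfsg.Agent.Zel.Sand

section Inf

variable {α : Type*}

/-- agreement on the first `n` letters -/
def Ag (n : ℕ) (a b : ℕ → α) : Prop := ∀ l < n, a l = b l

theorem Ag.mono {n m : ℕ} {a b : ℕ → α} (h : Ag n a b) (hm : m ≤ n) : Ag m a b :=
  fun l hl => h l (lt_of_lt_of_le hl hm)

theorem Ag.symm {n : ℕ} {a b : ℕ → α} (h : Ag n a b) : Ag n b a := fun l hl => (h l hl).symm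

theorem Ag.trans {n : ℕ} {a b c : ℕ → α} (h : Ag n a b) (h' : Ag n b c) : Ag n a c :=
  fun l hl => (h l hl).trans (h' l hl)

/-- the shift -/
def sh (i : ℕ) (y : ℕ → α) : ℕ → α := fun k => y (i + k)

theorem sh_sh (i j : ℕ) (y : ℕ → α) : sh i (sh j y) = sh (j + i) y := by
  funext k; simp [sh, add_assoc]

theorem sh_zero (y : ℕ → α) : sh 0 y = y := by funext k; simp [sh]

theorem Ag.sh {n i : ℕ} {a b : ℕ → α} (h : Ag (i + n) a b) : Ag n (sh i a) (sh i b) :=
  fun l hl => h (i + l) (by omega)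

/-- compactness -/
theorem exists_limit [Finite α] (x : ℕ → ℕ → α) :
    ∃ y : ℕ → α, ∀ n K, ∃ k, K ≤ k ∧ Ag n (x k) y := by
  let U : Ultrafilter ℕ := Filter.hyperfilter ℕ
  have h : ∀ i, ∃ a : α, {k | x k i = a} ∈ U := by
    intro i
    obtain ⟨a, ha⟩ := Ultrafilter.eq_pure_of_finite (U.map (fun k => x k i))
    refine ⟨a, ?_⟩
    have : ({a} : Set α) ∈ U.map (fun k => x k i) := by rw [ha]; simp
    exact this
  choose y hy using h
  refine ⟨y, fun n K => ?_⟩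
  have h1 : ∀ᶠ k in (U : Filter ℕ), ∀ i ∈ Finset.range n, x k i = y i :=
    (Filter.eventually_all_finset _).2 (fun i _ => hy i)
  have h2 : ∀ᶠ k in (U : Filter ℕ), K ≤ k := by
    apply Filter.hyperfilter_le_cofinite
    rw [Nat.cofinite_eq_atTop]
    exact Filter.eventually_ge_atTop K
  obtain ⟨k, hk1, hk2⟩ := (h1.and h2).exists
  exact ⟨k, hk2, fun l hl => hk1 l (Finset.mem_range.2 hl)⟩

/-- a finite piece of an infinite word -/
def seg (y : ℕ → α) (i n : ℕ) : List α := (List.range' i n).map y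

theorem seg_length (y : ℕ → α) (i n : ℕ) : (seg y i n).length = n := by simp [seg]

theorem seg_add (y : ℕ → α) (i n m : ℕ) : seg y i (n + m) = seg y i n ++ seg y (i + n) m := by
  simp [seg, ← List.map_append]

theorem seg_succ (y : ℕ → α) (i n : ℕ) : seg y i (n + 1) = y i :: seg y (i + 1) n := by
  simp [seg, List.range'_succ]

theorem seg_zero (y : ℕ → α) (i : ℕ) : seg y i 0 = [] := by simp [seg]

theorem seg_one (y : ℕ → α) (i : ℕ) : seg y i 1 = [y i] := by simp [seg]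

theorem seg_congr {y z : ℕ → α} {i j n : ℕ} (h : ∀ l < n, y (i + l) = z (j + l)) :
    seg y i n = seg z j n := by
  induction n generalizing i j with
  | zero => simp [seg]
  | succ n ih =>
    rw [seg_succ, seg_succ]
    have h0 := h 0 (Nat.succ_pos _)
    simp only [add_zero] at h0
    rw [h0, ih (fun l hl => ?_)]
    have := h (l + 1) (by omega)
    rw [show i + 1 + l = i + (l + 1) by omega, show j + 1 + l = j + (l + 1) by omega]
    exact this

theorem seg_getD (w : List α) (a : α) : seg (fun k => w.getD k a) 0 w.length = w := by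
  apply List.ext_getElem
  · simp [seg]
  · intro i h1 h2
    simp [seg, List.getElem?_eq_getElem h2]

variable [LinearOrder α]

/-- lexicographic order of infinite words -/
def ILt (a b : ℕ → α) : Prop := ∃ d, Ag d a b ∧ a d < b d

theorem ILt.trans {a b c : ℕ → α} (h : ILt a b) (h' : ILt b c) : ILt a c := by
  obtain ⟨d, h1, h2⟩ := h
  obtain ⟨e, h3, h4⟩ := h'
  rcases lt_trichotomy d e with H | rfl | H
  · exact ⟨d, h1.trans (h3.mono H.le), h3 d H ▸ h2⟩
  · exact ⟨d, h1.trans h3, h2.trans h4⟩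
  · exact ⟨e, (h1.mono H.le).trans h3, (h1 e H).symm ▸ h4⟩

theorem ILt.irrefl (a : ℕ → α) : ¬ ILt a a := fun ⟨_, _, h⟩ => lt_irrefl _ h

/-- a first difference -/
theorem exists_first_diff {n : ℕ} {a b : ℕ → α} (h : ¬ Ag n a b) :
    ∃ d < n, Ag d a b ∧ a d ≠ b d := by
  classical
  have hex : ∃ d, d < n ∧ a d ≠ b d := by
    by_contra hc
    exact h (fun l hl => by_contra (fun hne => hc ⟨l, hl, hne⟩))
  refine ⟨Nat.find hex, (Nat.find_spec hex).1, fun l hl => ?_, (Nat.find_spec hex).2⟩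
  by_contra hne
  exact Nat.find_min hex hl ⟨hl.trans (Nat.find_spec hex).1, hne⟩

theorem eq_of_not_ILt {a b : ℕ → α} (h : ¬ ILt a b) (h' : ¬ ILt b a) : a = b := by
  funext k
  by_contra hne
  obtain ⟨d, -, h1, h2⟩ := exists_first_diff (n := k + 1) (a := a) (b := b)
    (fun hh => hne (hh k (Nat.lt_succ_self _)))
  rcases lt_or_gt_of_ne h2 with h3 | h3
  · exact h ⟨d, h1, h3⟩
  · exact h' ⟨d, h1.symm, h3⟩

theorem not_ILt_trans {a b c : ℕ → α} (h : ¬ ILt b a) (h' : ¬ ILt c b) : ¬ ILt c a := by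
  intro hca
  by_cases hab : ILt a b
  · exact h' (hca.trans hab)
  · rw [eq_of_not_ILt hab h] at hca
    exact h' hca

/-- `a ≤ b ≤ c` and `a`, `c` agree: so do `b`, `c` -/
theorem ag_of_between {n : ℕ} {a b c : ℕ → α} (h : ¬ ILt b a) (h' : ¬ ILt c b) (hac : Ag n a c) :
    Ag n b c := by
  by_contra hn
  obtain ⟨d, hd, h1, h2⟩ := exists_first_diff hn
  rcases lt_or_gt_of_ne h2 with h3 | h3
  · exact h ⟨d, h1.trans (hac.mono hd.le).symm, (hac d hd).symm ▸ h3⟩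
  · exact h' ⟨d, h1.symm, h3⟩

theorem exists_sup [Finite α] {A : Set (ℕ → α)} (hA : A.Nonempty) :
    ∃ σ : ℕ → α, (∀ a ∈ A, ¬ ILt σ a) ∧ ∀ n, ∃ a ∈ A, Ag n a σ := by
  have h : ∀ n, ∃ a ∈ A, ∀ b ∈ A, ∀ d < n, Ag d a b → ¬ a d < b d := by
    intro n
    induction n with
    | zero =>
      obtain ⟨a, ha⟩ := hA
      exact ⟨a, ha, fun _ _ _ h => absurd h (Nat.not_lt_zero _)⟩
    | succ n ih =>
      obtain ⟨a, ha, hmax⟩ := ih
      obtain ⟨c, ⟨a', ⟨ha', hag⟩, rfl⟩, hc⟩ := Set.exists_max_image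
        ((fun b : ℕ → α => b n) '' {b | b ∈ A ∧ Ag n b a}) id (Set.toFinite _)
        ⟨a n, a, ⟨ha, fun _ _ => rfl⟩, rfl⟩
      refine ⟨a', ha', fun b hb d hd hab => ?_⟩
      rcases Nat.lt_succ_iff_lt_or_eq.1 hd with hd | rfl
      · rw [hag d hd]
        exact hmax b hb d hd ((hag.mono hd.le).symm.trans hab)
      · exact not_lt.2 (hc _ ⟨b, ⟨hb, hab.symm.trans hag⟩, rfl⟩)
  choose x hx hmax using h
  obtain ⟨σ, hσ⟩ := exists_limit x
  refine ⟨σ, ?_, fun n => ?_⟩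
  · rintro a ha ⟨d, h1, h2⟩
    obtain ⟨k, hk, hag⟩ := hσ (d + 1) (d + 1)
    refine hmax k a ha d (by omega) ((hag.mono (Nat.le_succ _)).trans h1) ?_
    rw [hag d (Nat.lt_succ_self _)]; exact h2
  · obtain ⟨k, -, hag⟩ := hσ n 0
    exact ⟨x k, hx k, hag⟩

theorem exists_inf [Finite α] {A : Set (ℕ → α)} (hA : A.Nonempty) :
    ∃ σ : ℕ → α, (∀ a ∈ A, ¬ ILt a σ) ∧ ∀ n, ∃ a ∈ A, Ag n a σ := by
  obtain ⟨σ, h1, h2⟩ := exists_sup (α := αᵒᵈ) (A := A) hA
  refine ⟨σ, ?_, h2⟩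
  rintro a ha ⟨d, h3, h4⟩
  exact h1 a ha ⟨d, h3.symm, h4⟩

/-- a non-empty closed shift-invariant set has a recurrent member above all its shifts -/
theorem exists_rec_max [Finite α] {X : Set (ℕ → α)} (hne : X.Nonempty)
    (hsh : ∀ y ∈ X, ∀ i, sh i y ∈ X) (hcl : ∀ y, (∀ n, ∃ x ∈ X, Ag n x y) → y ∈ X) :
    ∃ ω ∈ X, (∀ i, ¬ ILt ω (sh i ω)) ∧ ∀ n, ∃ j, 1 ≤ j ∧ Ag n (sh j ω) ω := by
  let Y : Set (ℕ → α) := {y | y ∈ X ∧ ∀ i, ¬ ILt y (sh i y)}
  have hs : ∀ x ∈ X, ∃ σ ∈ Y, ∀ n, ∃ i, Ag n (sh i x) σ := by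
    intro x hx
    obtain ⟨σ, h1, h2⟩ := exists_sup (A := Set.range (fun i => sh i x)) (Set.range_nonempty _)
    refine ⟨σ, ⟨hcl σ (fun n => ?_), ?_⟩, fun n => ?_⟩
    · obtain ⟨_, ⟨i, rfl⟩, h⟩ := h2 n
      exact ⟨_, hsh x hx i, h⟩
    · rintro i ⟨d, h3, h4⟩
      obtain ⟨_, ⟨j, rfl⟩, h⟩ := h2 (i + (d + 1))
      have h5 := h.sh
      rw [sh_sh] at h5
      refine h1 (sh (j + i) x) ⟨j + i, rfl⟩ ⟨d, h3.trans (h5.mono (Nat.le_succ _)).symm, ?_⟩
      rw [h5 d (Nat.lt_succ_self _)]; exact h4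
    · obtain ⟨_, ⟨i, rfl⟩, h⟩ := h2 n
      exact ⟨i, h⟩
  have hY : Y.Nonempty := by
    obtain ⟨x, hx⟩ := hne
    obtain ⟨σ, hσ, -⟩ := hs x hx
    exact ⟨σ, hσ⟩
  obtain ⟨ω, h1, h2⟩ := exists_inf hY
  have hωX : ω ∈ X := hcl ω (fun n => by
    obtain ⟨a, ha, h⟩ := h2 n
    exact ⟨a, ha.1, h⟩)
  have hωM : ∀ i, ¬ ILt ω (sh i ω) := by
    rintro i ⟨d, h3, h4⟩
    obtain ⟨a, ha, h⟩ := h2 (i + (d + 1))
    have h5 := h.sh
    refine ha.2 i ⟨d, ((h.mono (by omega)).trans h3).trans (h5.mono (Nat.le_succ _)).symm, ?_⟩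
    rw [h5 d (Nat.lt_succ_self _), h d (by omega)]; exact h4
  refine ⟨ω, hωX, hωM, fun n => ?_⟩
  obtain ⟨σ, hσ, h3⟩ := hs (sh 1 ω) (hsh ω hωX 1)
  have : σ = ω := by
    refine eq_of_not_ILt (h1 σ hσ) ?_
    rintro ⟨d, h4, h5⟩
    obtain ⟨i, hi⟩ := h3 (d + 1)
    rw [sh_sh] at hi
    refine hωM (1 + i) ⟨d, h4.trans (hi.mono (Nat.le_succ _)).symm, ?_⟩
    rw [hi d (Nat.lt_succ_self _)]; exact h5
  subst this
  obtain ⟨i, hi⟩ := h3 n
  rw [sh_sh] at hi
  exact ⟨1 + i, by omega, hi⟩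

theorem slt_seg {y z : ℕ → α} {i j n m d : ℕ} (hn : d < n) (hm : d < m)
    (h1 : ∀ l < d, y (i + l) = z (j + l)) (h2 : y (i + d) < z (j + d)) :
    SLt (seg y i n) (seg z j m) := by
  obtain ⟨n, rfl⟩ : ∃ n', n = d + (n' + 1) := ⟨n - d - 1, by omega⟩
  obtain ⟨m, rfl⟩ : ∃ m', m = d + (m' + 1) := ⟨m - d - 1, by omega⟩
  rw [seg_add y i d, seg_add z j d, seg_congr h1, seg_succ, seg_succ]
  exact SLt.append_left _ (SLt.rel _ _ h2)

/-- an unbordered prefix of a word above all its shifts is regular -/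
theorem reg_seg {ω : ℕ → α} (hM : ∀ i, ¬ ILt ω (sh i ω)) {β : ℕ} (hβ : 1 ≤ β)
    (hb : ∀ k, 1 ≤ k → k < β → ¬ Ag (β - k) (sh k ω) ω) : Reg (seg ω 0 β) := by
  refine ⟨fun h => ?_, fun v w hv hw h => ?_⟩
  · have := seg_length ω 0 β
    rw [h] at this
    simp at this
    omega
  · have hl := seg_length ω 0 β
    rw [h, List.length_append] at hl
    have h1 := List.length_pos_iff.2 hv
    have h2 := List.length_pos_iff.2 hw
    have h3 : seg ω 0 β = seg ω 0 v.length ++ seg ω v.length w.length := by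
      rw [← hl, seg_add, zero_add]
    have h4 : w = seg ω v.length w.length :=
      (List.append_inj (h.symm.trans h3) (by rw [seg_length])).2
    obtain ⟨d, hd, h5, h6⟩ := exists_first_diff (hb v.length h1 (by omega))
    rw [h4]
    refine slt_seg (d := d) (by omega) (by omega) (fun l hl => by simpa [sh] using h5 l hl) ?_
    rcases lt_or_gt_of_ne h6 with h7 | h7
    · simpa [sh] using h7
    · exact absurd ⟨d, h5.symm, h7⟩ (hM v.length)

end Inf

variable {α : Type*} [LinearOrder α]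

/-- the word has a factor `u g u`, `u` regular, `g` regular or empty -/
def Bad (w : List α) : Prop :=
  ∃ p u g s : List α, Reg u ∧ (g = [] ∨ Reg g) ∧ w = p ++ (u ++ g ++ u) ++ s

theorem Bad.extend {w : List α} (h : Bad w) (p s : List α) : Bad (p ++ w ++ s) := by
  obtain ⟨p', u, g, s', h1, h2, rfl⟩ := h
  exact ⟨p ++ p', u, g, s' ++ s, h1, h2, by simp⟩

theorem bad_of_inf [Finite α] (y : ℕ → α) : ∃ i n, Bad (seg y i n) := by
  classical
  by_contra hc
  let X : Set (ℕ → α) := {y | ∀ i n, ¬ Bad (seg y i n)}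
  have hne : X.Nonempty := ⟨y, fun i n h => hc ⟨i, n, h⟩⟩
  have hsh : ∀ y ∈ X, ∀ i, sh i y ∈ X := by
    intro y hy i j n h
    have : seg (sh i y) j n = seg y (i + j) n := seg_congr (fun l _ => by simp [sh, add_assoc])
    exact hy _ _ (this ▸ h)
  have hcl : ∀ y, (∀ n, ∃ x ∈ X, Ag n x y) → y ∈ X := by
    intro y hy i n h
    obtain ⟨x, hx, hag⟩ := hy (i + n)
    have : seg y i n = seg x i n := seg_congr (fun l hl => (hag (i + l) (by omega)).symm)
    exact hx _ _ (this ▸ h)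
  obtain ⟨ω, hω, hM, hR⟩ := exists_rec_max hne hsh hcl
  -- weak records
  have hrec : ∀ n, ∃ j, 1 ≤ j ∧ Ag n (sh j ω) ω ∧
      ∀ i, 1 ≤ i → i < j → ¬ ILt (sh j ω) (sh i ω) := by
    intro n
    obtain ⟨j0, hj0, hag⟩ := hR n
    have hmax : ∀ J, 1 ≤ J → ∃ j, 1 ≤ j ∧ j ≤ J ∧
        ∀ i, 1 ≤ i → i ≤ J → ¬ ILt (sh j ω) (sh i ω) := by
      intro J hJ
      induction J, hJ using Nat.le_induction with
      | base =>
        refine ⟨1, le_rfl, le_rfl, fun i h1 h2 => ?_⟩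
        rw [le_antisymm h2 h1]; exact ILt.irrefl _
      | succ J hJ ih =>
        obtain ⟨j, h1, h2, h3⟩ := ih
        by_cases hlt : ILt (sh j ω) (sh (J + 1) ω)
        · refine ⟨J + 1, by omega, le_rfl, fun i h4 h5 => ?_⟩
          rcases Nat.lt_succ_iff_lt_or_eq.1 (Nat.lt_succ_of_le h5) with h6 | rfl
          · exact fun h7 => h3 i h4 (by omega) (hlt.trans h7)
          · exact ILt.irrefl _
        · refine ⟨j, h1, by omega, fun i h4 h5 => ?_⟩
          rcases Nat.lt_succ_iff_lt_or_eq.1 (Nat.lt_succ_of_le h5) with h6 | rfl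
          · exact h3 i h4 (by omega)
          · exact hlt
    obtain ⟨j, h1, h2, h3⟩ := hmax j0 hj0
    exact ⟨j, h1, ag_of_between (h3 j0 hj0 le_rfl) (hM j) hag, fun i h4 h5 => h3 i h4 (by omega)⟩
  choose J hJ1 hJ2 hJ3 using hrec
  -- a letter preceding infinitely many records
  obtain ⟨z, hz⟩ := exists_limit (fun n (_ : ℕ) => ω (J n - 1))
  obtain ⟨n0, -, hn0⟩ := hz 1 0
  have ha0 : ω (J n0 - 1) = z 0 := hn0 0 Nat.one_pos
  obtain ⟨t, ht⟩ : ∃ t, J n0 = t + 1 := ⟨J n0 - 1, by have := hJ1 n0; omega⟩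
  have hat : ω t = z 0 := by rw [← ha0, ht]; rfl
  obtain ⟨n1, hn1, hn1'⟩ := hz 1 (t + 1)
  have ha1 : ω (J n1 - 1) = z 0 := hn1' 0 Nat.one_pos
  obtain ⟨s, hs⟩ : ∃ s, J n1 = s + 1 := ⟨J n1 - 1, by have := hJ1 n1; omega⟩
  have has : ω s = z 0 := by rw [← ha1, hs]; rfl
  -- the factor `a ω[0,t) a`
  have hfac : seg ω s (1 + (t + 1)) = [z 0] ++ seg ω 0 t ++ [z 0] := by
    have h1 : seg ω (s + 1) (t + 1) = seg ω 0 (t + 1) := seg_congr (fun l hl => by
      have := hJ2 n1 l (by omega)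
      rw [hs] at this
      simpa [sh] using this)
    rw [seg_add, seg_one, has, h1, seg_add, seg_one, zero_add, hat, List.append_assoc]
  rcases Nat.eq_zero_or_pos t with ht0 | ht0
  · refine hω s (1 + (t + 1)) ⟨[], [z 0], [], [], reg_single _, Or.inl rfl, ?_⟩
    rw [hfac, ht0, seg_zero]; simp
  · have hex : ∃ β, 1 ≤ β ∧ β ≤ t ∧ Ag β (sh (t - β) ω) ω :=
      ⟨t, ht0, le_rfl, by rw [Nat.sub_self, sh_zero]; exact fun _ _ => rfl⟩
    obtain ⟨hβ1, hβt, hβ⟩ := Nat.find_spec hex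
    have hmin := fun m => Nat.find_min hex (m := m)
    generalize Nat.find hex = β at hβ1 hβt hβ hmin
    have hreg : Reg (seg ω 0 β) := by
      refine reg_seg hM hβ1 (fun k hk1 hk2 hag => hmin (β - k) (by omega) ⟨by omega, by omega, ?_⟩)
      intro l hl
      have h1 := hβ (k + l) (by omega)
      have h2 := hag l hl
      simp only [sh] at h1 h2 ⊢
      rw [← h2, ← h1]
      congr 1
      omega
    rcases eq_or_lt_of_le hβt with hβ' | hβ'
    · refine hω s (1 + (t + 1)) ⟨[], [z 0], seg ω 0 t, [], reg_single _, Or.inr (hβ' ▸ hreg), ?_⟩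
      rw [hfac]; simp
    · by_cases hag : Ag β (sh (t + 1) ω) ω
      · refine hω (t - β) (β + 1 + β) ⟨[], seg ω 0 β, [z 0], [], hreg, Or.inr (reg_single _), ?_⟩
        have h1 : seg ω (t - β) β = seg ω 0 β :=
          seg_congr (fun l hl => by simpa [sh] using hβ l hl)
        have h2 : seg ω (t + 1) β = seg ω 0 β :=
          seg_congr (fun l hl => by simpa [sh] using hag l hl)
        rw [seg_add, seg_add, seg_one, h1, show t - β + β = t by omega, hat,
          show t - β + (β + 1) = t + 1 by omega, h2]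
        simp
      · obtain ⟨d, hd, h1, h2⟩ := exists_first_diff hag
        rcases lt_or_gt_of_ne h2 with h3 | h3
        · refine hJ3 n0 (t - β) (by omega) (by omega) ⟨d, ?_, ?_⟩
          · rw [ht]; exact h1.trans (hβ.mono hd.le).symm
          · rw [ht, hβ d hd]; exact h3
        · exact hM (t + 1) ⟨d, h1.symm, h3⟩

/-- **Every long word has a factor `u g u`** with `u` regular and `g` regular or empty. -/
theorem exists_bad_bound (α : Type*) [LinearOrder α] [Finite α] :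
    ∃ N : ℕ, ∀ w : List α, N ≤ w.length → Bad w := by
  by_contra hc
  have h : ∀ N : ℕ, ∃ w : List α, N ≤ w.length ∧ ¬ Bad w := by
    intro N
    by_contra h
    exact hc ⟨N, fun w hw => by_contra (fun hb => h ⟨w, hw, hb⟩)⟩
  choose w hw1 hw2 using h
  have a : α := (w 1).get ⟨0, hw1 1⟩
  obtain ⟨y, hy⟩ := exists_limit (fun k l => (w k).getD l a)
  obtain ⟨i, n, hb⟩ := bad_of_inf y
  obtain ⟨k, hk, hag⟩ := hy (i + n) (i + n)
  have h1 : seg y i n = seg (fun l => (w k).getD l a) i n :=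
    seg_congr (fun l hl => (hag (i + l) (by omega)).symm)
  obtain ⟨r, hr⟩ : ∃ r, (w k).length = i + n + r := ⟨(w k).length - (i + n), by have := hw1 k; omega⟩
  apply hw2 k
  rw [← seg_getD (w k) a, hr, seg_add, seg_add, zero_add, ← h1]
  exact hb.extend _ _

end Cfsg.Agent.Zel.Sand
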