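import Mathlib

/-!
# Regular (Lyndon–Shirshov) words

`SLt a b`: the words `a`, `b` differ at some position, and at the first such position the letter of
`a` is smaller.  `Reg u`: every proper non-empty suffix of the non-empty word `u` is `SLt`-below `u`.
A regular word of length at least two is a product of two regular words.
-/

set_option autoImplicit false

namespace Cfsg.Agent.Zel.Sand

variable {α : Type*} [LinearOrder α]

/-- the first difference exists and is smaller in the first word -/
inductive SLt : List α → List α → Prop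
  | rel {c d : α} (a b : List α) (h : c < d) : SLt (c :: a) (d :: b)
  | cons (c : α) {a b : List α} (h : SLt a b) : SLt (c :: a) (c :: b)

theorem SLt.trans {a b c : List α} (h₁ : SLt a b) (h₂ : SLt b c) : SLt a c := by
  induction h₁ generalizing c with
  | rel a b h =>
    cases h₂ with
    | rel _ _ h' => exact SLt.rel _ _ (h.trans h')
    | cons _ _ => exact SLt.rel _ _ h
  | cons x _ ih =>
    cases h₂ with
    | rel _ _ h' => exact SLt.rel _ _ h'
    | cons _ h' => exact SLt.cons _ (ih h')

theorem SLt.irrefl (a : List α) : ¬ SLt a a := by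
  induction a with
  | nil => intro h; cases h
  | cons x a ih =>
    intro h
    cases h with
    | rel _ _ h => exact lt_irrefl _ h
    | cons _ h => exact ih h

theorem SLt.asymm {a b : List α} (h₁ : SLt a b) (h₂ : SLt b a) : False :=
  SLt.irrefl a (h₁.trans h₂)

theorem SLt.append {a b : List α} (h : SLt a b) (s t : List α) : SLt (a ++ s) (b ++ t) := by
  induction h with
  | rel a b h => exact SLt.rel _ _ h
  | cons x _ ih => exact SLt.cons _ ih

theorem SLt.append_left (p : List α) {a b : List α} (h : SLt a b) : SLt (p ++ a) (p ++ b) := by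
  induction p with
  | nil => exact h
  | cons x p ih => exact SLt.cons _ ih

theorem SLt.of_append_left (p : List α) {a b : List α} (h : SLt (p ++ a) (p ++ b)) : SLt a b := by
  induction p with
  | nil => exact h
  | cons x p ih =>
    cases h with
    | rel _ _ h => exact absurd h (lt_irrefl _)
    | cons _ h => exact ih h

theorem SLt.tri (a b : List α) : SLt a b ∨ SLt b a ∨ a <+: b ∨ b <+: a := by
  induction a generalizing b with
  | nil => exact Or.inr (Or.inr (Or.inl List.nil_prefix))
  | cons x a ih =>
    cases b with
    | nil => exact Or.inr (Or.inr (Or.inr List.nil_prefix))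
    | cons y b =>
      rcases lt_trichotomy x y with h | h | h
      · exact Or.inl (SLt.rel _ _ h)
      · subst h
        rcases ih b with h | h | h | h
        · exact Or.inl (SLt.cons _ h)
        · exact Or.inr (Or.inl (SLt.cons _ h))
        · exact Or.inr (Or.inr (Or.inl ((List.prefix_cons_inj x).2 h)))
        · exact Or.inr (Or.inr (Or.inr ((List.prefix_cons_inj x).2 h)))
      · exact Or.inr (Or.inl (SLt.rel _ _ h))

instance instStrictSLt : IsStrictOrder (List α) SLt where
  irrefl := SLt.irrefl
  trans := fun _ _ _ => SLt.trans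

/-- a finite non-empty set of words has an `SLt`-maximal member -/
theorem exists_max_of_finite {s : Set (List α)} (hs : s.Finite) (hne : s.Nonempty) :
    ∃ a ∈ s, ∀ b ∈ s, ¬ SLt a b := by
  have : IsStrictOrder (List α) (fun a b => SLt b a) :=
    { irrefl := SLt.irrefl, trans := fun _ _ _ h₁ h₂ => SLt.trans h₂ h₁ }
  have hw : s.WellFoundedOn (fun a b => SLt b a) := hs.wellFoundedOn
  obtain ⟨a, ha⟩ := hne
  obtain ⟨⟨b, hb⟩, -, hmin⟩ := WellFounded.has_min hw Set.univ ⟨⟨a, ha⟩, Set.mem_univ _⟩
  exact ⟨b, hb, fun c hc h => hmin ⟨c, hc⟩ (Set.mem_univ _) h⟩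

/-- regular words -/
def Reg (u : List α) : Prop := u ≠ [] ∧ ∀ v w : List α, v ≠ [] → w ≠ [] → u = v ++ w → SLt w u

theorem reg_single (a : α) : Reg [a] := by
  refine ⟨by simp, fun v w hv hw h => ?_⟩
  have := congrArg List.length h
  have h1 := List.length_pos_iff.2 hv
  have h2 := List.length_pos_iff.2 hw
  simp at this
  omega

/-- the standard factorisation -/
theorem Reg.exists_fact {u : List α} (hu : Reg u) (h2 : 2 ≤ u.length) :
    ∃ v w : List α, Reg v ∧ Reg w ∧ u = v ++ w ∧ SLt (w ++ v) (v ++ w) := by
  classical
  let s : Set (List α) := {w | w ≠ [] ∧ ∃ v, v ≠ [] ∧ u = v ++ w}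
  have hsf : s.Finite := by
    refine (u.tails.finite_toSet).subset ?_
    rintro w ⟨-, v, -, h⟩
    simp only [Set.mem_ofPred_eq, List.mem_tails]
    exact ⟨v, h.symm⟩
  have hsne : s.Nonempty := by
    obtain ⟨a, b, t, h⟩ : ∃ a b t, u = a :: b :: t := by
      match u, h2 with
      | a :: b :: t, _ => exact ⟨a, b, t, rfl⟩
    exact ⟨b :: t, by simp, [a], by simp, by simp [h]⟩
  let M : Set (List α) := {w | w ∈ s ∧ ∀ b ∈ s, ¬ SLt w b}
  have hM : M.Nonempty := by
    obtain ⟨a, ha, h⟩ := exists_max_of_finite hsf hsne
    exact ⟨a, ha, h⟩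
  obtain ⟨w, ⟨⟨hw0, v, hv0, huv⟩, hwmax⟩, hwmin⟩ :=
    WellFounded.has_min (InvImage.wf (fun l : List α => l.length) wellFounded_lt) M hM
  refine ⟨v, w, ⟨hv0, ?_⟩, ⟨hw0, ?_⟩, huv, ?_⟩
  · intro r v' hr hv' hv
    have hlt : SLt (v' ++ w) u := hu.2 r (v' ++ w) hr (by simp [hv']) (by rw [huv, hv]; simp)
    rcases SLt.tri v' v with h | h | h | h
    · exact h
    · exact absurd (h.append w w) (fun h' => h'.asymm (huv ▸ hlt))
    · obtain ⟨t, ht⟩ := h
      have ht0 : t ≠ [] := by
        rintro rfl
        have := congrArg List.length hv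
        have h1 := List.length_pos_iff.2 hr
        rw [← ht] at this
        simp at this
        exact hr this
      have h3 : SLt w (t ++ w) := by
        apply SLt.of_append_left v'
        rw [← List.append_assoc, ht, ← huv]; exact hlt
      exact absurd h3 (hwmax (t ++ w) ⟨by simp [ht0], v', hv', by rw [huv, ← ht]; simp⟩)
    · have := h.length_le
      have h1 := List.length_pos_iff.2 hr
      rw [hv, List.length_append] at this
      omega
  · intro r w' hr hw' hw
    have hs' : w' ∈ s := ⟨hw', v ++ r, by simp [hv0], by rw [huv, hw]; simp⟩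
    have hlen : w'.length < w.length := by
      have h1 := List.length_pos_iff.2 hr
      rw [hw]; simp; omega
    rcases SLt.tri w' w with h | h | h | h
    · exact h
    · exact absurd h (hwmax w' hs')
    · obtain ⟨t, ht⟩ := h
      refine absurd hlen (hwmin w' ⟨hs', fun b hb hlt => ?_⟩)
      have := hlt.append t []
      rw [ht, List.append_nil] at this
      exact hwmax b hb this
    · exact absurd h.length_le (by omega)
  · have := (hu.2 v w hv0 hw0 huv).append v []
    rw [List.append_nil, huv] at this
    exact this

end Cfsg.Agent.Zel.Sand
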